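import Mathlib

set_option autoImplicit false

namespace Cfsg.Agent.G22

open Subgroup

variable {G : Type*} [Group G]

/-- the wreathed group `4 ≀ 2` -/
structure W3 (a b z : G) : Prop where
  oa : orderOf a = 4
  ab : a * b = b * a
  dis : zpowers a ⊓ zpowers b = ⊥
  z2 : z * z = 1
  za : z * a * z = b

/-- relations for the element `r` of order three normalising `⟨a, b⟩` -/
structure RR (a b z r : G) : Prop where
  r3 : r ^ 3 = 1
  ra : r * a * r⁻¹ = b
  rb : r * b * r⁻¹ = (a * b)⁻¹
  zr : z * r * z * r = 1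

/-- relations for the element `p` of order three centralising `a² b²` -/
structure PP (a b z p : G) : Prop where
  p3 : p ^ 3 = 1
  pab : p * (a * b) = a * b * p
  pi : p * (a * b⁻¹) * p⁻¹ = a * a * z
  pj : p * (a * a * z) * p⁻¹ = a * b⁻¹ * (a * a * z)
  azp : a * z * p * (a * z)⁻¹ = p⁻¹

/-- all relations of the amalgam -/
structure Rel (a b z r p : G) : Prop where
  a4 : a ^ 4 = 1
  ab : a * b = b * a
  z2 : z * z = 1
  za : z * a * z = b
  rr : RR a b z r
  pp : PP a b z p

def tt (a b : G) : G := a * a * (b * b)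
def gg (r p : G) : G := r * p⁻¹ * r * p⁻¹ * r
def ss (a b r p : G) : G := gg r p * tt a b * (gg r p)⁻¹

/-- a group of order 6048 with the 2-local structure of `U₃(3)` -/
structure HY (G : Type*) [Group G] : Prop where
  card : Nat.card G = 6048
  cls : ∀ u v : G, orderOf u = 2 → orderOf v = 2 → IsConj u v
  cen : ∀ t : G, orderOf t = 2 → Nat.card (centralizer ({t} : Set G)) = 96
  sl : ∀ t : G, orderOf t = 2 → Nonempty (commutator (centralizer ({t} : Set G)) ≃*
    Matrix.SpecialLinearGroup (Fin 2) (ZMod 3))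
  wr : ∃ a b z : G, W3 a b z

end Cfsg.Agent.G22
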