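import Cfsg.Agent.G22.A
import Cfsg.Agent.H12.TC

set_option autoImplicit false

namespace Cfsg.Agent.G22

open Subgroup

/-- the statement of piece `tcU` for the group `G` -/
def TCU (G : Type*) [Group G] : Prop :=
  ∀ a b z r p : G, Rel a b z r p → p * ss a b r p = ss a b r p * p →
    Finite ↥(closure ({a, b, z, r, p} : Set G)) ∧
      Nat.card ↥(closure ({a, b, z, r, p} : Set G)) ≤ 6048

/-- the statement of piece `tcC` for the group `G` -/
def TCC (G : Type*) [Group G] : Prop :=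
  ∀ a b z r p : G, Rel a b z r p →
    ((tt a b * ss a b r p) ^ 4 = 1 ∨ ∃ q ∈ [a * b⁻¹, a * a * z, a * b⁻¹ * (a * a * z)],
      q * p * q⁻¹ * ss a b r p = ss a b r p * (q * p * q⁻¹)) →
    r ∈ closure ({a, b, z, p} : Set G)

/-- the conclusion of piece `exr` for the group `G` -/
def EXR (G : Type*) [Group G] : Prop := ∃ a b z r : G, W3 a b z ∧ RR a b z r

/-- the statement of piece `exp` for the group `G` -/
def EXP (G : Type*) [Group G] : Prop :=
  ∀ a b z : G, W3 a b z → ∃ p, PP a b z p ∧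
    closure ({a, b, z, p} : Set G) = centralizer ({tt a b} : Set G) ∧
    (∀ y ∈ centralizer ({tt a b} : Set G), orderOf y = 3 →
      ∃ q ∈ [1, a * b⁻¹, a * a * z, a * b⁻¹ * (a * a * z)],
        y = q * p * q⁻¹ ∨ y = q * p⁻¹ * q⁻¹) ∧
    ∀ u ∈ centralizer ({tt a b} : Set G), ∀ v ∈ centralizer ({tt a b} : Set G),
      u * u = 1 → v * v = 1 → (u * v) ^ 4 = 1

namespace AS

variable {G : Type*} [Group G]

theorem memC {x y : G} : y ∈ centralizer ({x} : Set G) ↔ x * y = y * x := by
  rw [mem_centralizer_singleton_iff]; exact eq_comm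

theorem b4 {a b z : G} (w : W3 a b z) : orderOf b = 4 := by
  have hz : z⁻¹ = z := inv_eq_of_mul_eq_one_right w.z2
  have : b = z * a * z⁻¹ := by rw [hz, w.za]
  rw [this, ← w.oa]
  exact (MulAut.conj z).orderOf_eq a

theorem a4 {a b z : G} (w : W3 a b z) : a ^ 4 = 1 := w.oa ▸ pow_orderOf_eq_one a

theorem tt_eq {a b : G} : tt a b = a ^ 2 * b ^ 2 := by simp [tt, sq]

theorem ot {a b z : G} (w : W3 a b z) : orderOf (tt a b) = 2 := by
  have hc : Commute a b := w.ab
  have hb : b ^ 4 = 1 := b4 w ▸ pow_orderOf_eq_one b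
  refine orderOf_eq_prime ?_ ?_
  · rw [tt_eq, (hc.pow_pow 2 2).mul_pow, ← pow_mul, ← pow_mul, a4 w, hb, one_mul]
  · intro h
    rw [tt_eq] at h
    have h1 : a ^ 2 ∈ zpowers a ⊓ zpowers b :=
      mem_inf.2 ⟨npow_mem_zpowers a 2, by
        rw [eq_inv_of_mul_eq_one_left h]; exact inv_mem (npow_mem_zpowers b 2)⟩
    rw [w.dis, mem_bot] at h1
    have := orderOf_dvd_of_pow_eq_one h1
    rw [w.oa] at this
    omega

theorem r_not {a b z r : G} (w : W3 a b z) (hr : RR a b z r) :
    r ∉ centralizer ({tt a b} : Set G) := by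
  intro h
  rw [memC] at h
  have hc : Commute a b := w.ab
  have h1 : r * tt a b * r⁻¹ = tt a b := by rw [← h]; group
  have h2 : r * tt a b * r⁻¹ = (r * a * r⁻¹) ^ 2 * (r * b * r⁻¹) ^ 2 := by
    rw [tt_eq]; simp [sq, mul_assoc]
  rw [h2, hr.ra, hr.rb, inv_pow, hc.mul_pow, tt_eq, mul_inv_rev, mul_inv_cancel_left] at h1
  have h3 : b ^ 2 = 1 := by
    have h4 : a ^ 2 * a ^ 2 = 1 := by rw [← pow_add]; exact a4 w
    rw [inv_eq_of_mul_eq_one_right h4] at h1
    exact (mul_eq_left.1 h1.symm)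
  have := orderOf_dvd_of_pow_eq_one h3
  rw [b4 w] at this
  omega

theorem key [Finite G] (h : HY G) (exr : EXR G) (exp : EXP G) (tcC : TCC G) :
    ∃ a b z r p : G, Rel a b z r p ∧ p * ss a b r p = ss a b r p * p ∧
      closure ({a, b, z, r, p} : Set G) = ⊤ := by
  obtain ⟨a, b, z, r, w, hr⟩ := exr
  obtain ⟨p, hp, hA, h3, h4⟩ := exp a b z w
  have rel : Rel a b z r p := ⟨a4 w, w.ab, w.z2, w.za, hr, hp⟩
  have hn := r_not w hr
  have hno := fun hx => hn (hA ▸ tcC a b z r p rel hx)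
  have ht := ot w
  set t := tt a b with htd
  set s := ss a b r p with hsd
  have hsg : s = gg r p * t * (gg r p)⁻¹ := rfl
  have hs : orderOf s = 2 := by
    rw [hsg, ← ht]; exact (MulAut.conj (gg r p)).orderOf_eq t
  set A := centralizer ({t} : Set G) with hAd
  set B := centralizer ({s} : Set G) with hBd
  have cA : Nat.card A = 96 := h.cen t ht
  have cB : Nat.card B = 96 := h.cen s hs
  have iB : B.index = 63 := by
    have := B.card_mul_index
    rw [cB, h.card] at this
    omega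
  have t2 : t * t = 1 := by rw [← sq, ← ht]; exact pow_orderOf_eq_one t
  have s2 : s * s = 1 := by rw [← sq, ← hs]; exact pow_orderOf_eq_one s
  -- the intersection
  have hmul : Nat.card ↥(B ⊓ A) * B.relIndex A = 96 := by
    have h1 : (⊥ : Subgroup G).relIndex (B ⊓ A) * (B ⊓ A).relIndex A = (⊥ : Subgroup G).relIndex A :=
      relIndex_mul_relIndex ⊥ (B ⊓ A) A bot_le inf_le_right
    rwa [relIndex_bot_left, relIndex_bot_left, inf_relIndex_right, cA] at h1
  have hle : B.relIndex A ≤ 63 := by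
    have := relIndex_le_of_le_right (H := B) (K := A) (L := ⊤) le_top
      (by rw [relIndex_top_right, iB]; norm_num)
    rwa [relIndex_top_right, iB] at this
  have hodd : ¬ 2 ∣ Nat.card ↥(B ⊓ A) := by
    intro h2
    obtain ⟨y, hy⟩ := exists_prime_orderOf_dvd_card' 2 h2
    have hy' : orderOf (y : G) = 2 := by rw [Subgroup.orderOf_coe, hy]
    obtain ⟨c, hc⟩ := isConj_iff.1 (h.cls y t hy' ht)
    have y1 : s * y = y * s := memC.1 y.2.1
    have y2 : t * y = y * t := memC.1 y.2.2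
    have m : ∀ u : G, u * y = y * u → c * u * c⁻¹ ∈ A := fun u hu => by
      rw [hAd, memC, ← hc]
      calc c * y * c⁻¹ * (c * u * c⁻¹) = c * (y * u) * c⁻¹ := by group
        _ = c * (u * y) * c⁻¹ := by rw [hu]
        _ = _ := by group
    have q : ∀ u : G, u * u = 1 → c * u * c⁻¹ * (c * u * c⁻¹) = 1 := fun u hu => by
      calc c * u * c⁻¹ * (c * u * c⁻¹) = c * (u * u) * c⁻¹ := by group
        _ = 1 := by rw [hu]; group
    have := h4 _ (m t y2) _ (m s y1) (q t t2) (q s s2)
    have e : c * t * c⁻¹ * (c * s * c⁻¹) = c * (t * s) * c⁻¹ := by group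
    rw [e, conj_pow, conj_eq_one_iff] at this
    exact hno (Or.inl this)
  have hc3 : Nat.card ↥(B ⊓ A) = 3 ∧ B.relIndex A = 32 := by
    generalize Nat.card ↥(B ⊓ A) = d at hmul hodd
    generalize B.relIndex A = e at hmul hle
    have : d ∣ 96 := Dvd.intro _ hmul
    have hd : d ≤ 96 := Nat.le_of_dvd (by norm_num) this
    interval_cases d <;> omega
  have hps : p * s = s * p := by
    obtain ⟨y, hy⟩ := exists_prime_orderOf_dvd_card' (G := ↥(B ⊓ A)) 3 (by rw [hc3.1])
    have hy' : orderOf (y : G) = 3 := by rw [Subgroup.orderOf_coe, hy]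
    obtain ⟨q, hq, hyq⟩ := h3 y y.2.2 hy'
    have y1 : Commute s y := memC.1 y.2.1
    have y2 : Commute s (q * p * q⁻¹) := by
      rcases hyq with e | e
      · rwa [e] at y1
      · have := y1.inv_right
        rw [e] at this
        simpa [mul_assoc] using this
    rcases List.mem_cons.1 hq with e | e
    · have := y2.symm.eq
      simpa [e] using this
    · exact (hno (Or.inr ⟨q, e, y2.symm.eq⟩)).elim
  refine ⟨a, b, z, r, p, rel, hps, ?_⟩
  set H := closure ({a, b, z, r, p} : Set G) with hH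
  have hAH : A ≤ H := by
    rw [← hA]
    apply Subgroup.closure_mono
    intro x hx
    simp only [Set.mem_insert_iff, Set.mem_singleton_iff] at hx ⊢
    tauto
  have hr' : r ∈ H := subset_closure (by simp)
  have hp' : p ∈ H := subset_closure (by simp)
  have hg : gg r p ∈ H :=
    mul_mem (mul_mem (mul_mem (mul_mem hr' (inv_mem hp')) hr') (inv_mem hp')) hr'
  have hBH : B ≤ H := by
    intro x hx
    have hx' : s * x = x * s := memC.1 hx
    have : (gg r p)⁻¹ * x * gg r p ∈ A := by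
      rw [hAd, memC]
      have e : t = (gg r p)⁻¹ * s * gg r p := by rw [hsg]; group
      rw [e]
      calc _ = (gg r p)⁻¹ * (s * x) * gg r p := by group
        _ = (gg r p)⁻¹ * (x * s) * gg r p := by rw [hx']
        _ = _ := by group
    have h2 := mul_mem (mul_mem hg (hAH this)) (inv_mem hg)
    simpa [mul_assoc] using h2
  have e1 := relIndex_mul_index hBH
  rw [iB] at e1
  have e2 : B.relIndex A ≤ B.relIndex H :=
    relIndex_le_of_le_right hAH (by intro h0; rw [h0] at e1; omega)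
  rw [hc3.2] at e2
  rw [← index_eq_one]
  generalize B.relIndex H = e at e1 e2
  generalize H.index = d at e1
  rcases d with _ | _ | d
  · omega
  · rfl
  · nlinarith

end AS

/-- uniqueness of a group satisfying `HY`, given the other pieces -/
theorem uniq {G G' : Type*} [Group G] [Finite G] [Group G'] [Finite G']
    (hr : EXR G) (hp : EXP G) (hc : TCC G) (hr' : EXR G') (hp' : EXP G') (hc' : TCC G')
    (hu : TCU (G × G')) (h : HY G) (h' : HY G') : Nonempty (G ≃* G') := by
  obtain ⟨a, b, z, r, p, R, x, c⟩ := AS.key h hr hp hc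
  obtain ⟨a', b', z', r', p', R', x', c'⟩ := AS.key h' hr' hp' hc'
  have rel : Rel (a, a') (b, b') (z, z') (r, r') (p, p') :=
    ⟨Prod.ext R.a4 R'.a4, Prod.ext R.ab R'.ab, Prod.ext R.z2 R'.z2, Prod.ext R.za R'.za,
      ⟨Prod.ext R.rr.r3 R'.rr.r3, Prod.ext R.rr.ra R'.rr.ra, Prod.ext R.rr.rb R'.rr.rb,
        Prod.ext R.rr.zr R'.rr.zr⟩,
      ⟨Prod.ext R.pp.p3 R'.pp.p3, Prod.ext R.pp.pab R'.pp.pab, Prod.ext R.pp.pi R'.pp.pi,
        Prod.ext R.pp.pj R'.pp.pj, Prod.ext R.pp.azp R'.pp.azp⟩⟩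
  obtain ⟨fin, le⟩ := hu _ _ _ _ _ rel (Prod.ext x x')
  set D := closure ({(a, a'), (b, b'), (z, z'), (r, r'), (p, p')} : Set (G × G')) with hD
  have m1 : D.map (MonoidHom.fst G G') = ⊤ := by
    rw [hD, MonoidHom.map_closure, ← c]
    simp [Set.image_insert_eq]
  have m2 : D.map (MonoidHom.snd G G') = ⊤ := by
    rw [hD, MonoidHom.map_closure, ← c']
    simp [Set.image_insert_eq]
  obtain ⟨f, hf⟩ := H12.exists_hom_of_card_le D m1 (by rw [h.card]; exact le)
  have hs : Function.Surjective f := fun y => by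
    obtain ⟨x, hx, rfl⟩ : y ∈ D.map (MonoidHom.snd G G') := m2 ▸ mem_top y
    exact ⟨x.1, hf x hx⟩
  exact ⟨MulEquiv.ofBijective f (hs.bijective_of_nat_card_le (by rw [h.card, h'.card]))⟩

end Cfsg.Agent.G22
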