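import Cfsg.Agent.G22.A
import Cfsg.Agent.S0815
import Cfsg.Agent.S1057
import Cfsg.Agent.S0280
import Cfsg.Agent.S0283
import Cfsg.Agent.H14.EO4

set_option autoImplicit false

namespace Cfsg.Agent.G22

open Subgroup

theorem card_u33 {K : Type*} [Field K] [Fintype K] (hK : Fintype.card K = 9) :
    Nat.card (Cfsg.PSU 3 K 3) = 6048 := by
  have := S0280.result (q := 3) hK 3 (by norm_num)
  simp [Finset.prod_range_succ, show ¬ Even 1 by decide] at this
  omega

theorem simple_u33 {K : Type*} [Field K] [Fintype K] (hK : Fintype.card K = 9) :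
    IsSimpleGroup (Cfsg.PSU 3 K 3) := S0283.result (q := 3) hK 3 le_rfl (by simp)

theorem aut {K : Type*} [Field K] [Fintype K] (hK : Fintype.card K = 9) {G : Type*} [Group G]
    [Finite G] (hn : Nat.card G = 12096) (T : Subgroup G) [T.Normal] (e : T ≃* Cfsg.PSU 3 K 3)
    (hC : centralizer (T : Set G) = ⊥) : Nonempty (G ≃* MulAut (Cfsg.PSU 3 K 3)) := by
  haveI : Fact (Nat.Prime 3) := ⟨Nat.prime_three⟩
  have h1 := S0815.result (F := K) 3 1 le_rfl (q := 3) rfl hK 3 le_rfl (by simp)
  rw [card_u33 hK] at h1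
  have hi : Function.Injective (MulAut.conjNormal : G →* MulAut T) :=
    (injective_iff_map_eq_one _).2 fun c hc => hC.le (mem_centralizer_iff.2 fun k hk =>
      (mul_inv_eq_iff_eq_mul.1 (congrArg (fun f : MulAut T => (f ⟨k, hk⟩ : G)) hc)).symm)
  have hb : Function.Bijective (MulAut.conjNormal : G →* MulAut T) :=
    (Nat.bijective_iff_injective_and_card _).2
      ⟨hi, by rw [hn, Nat.card_congr (MulAut.congr e).toEquiv, h1]; norm_num⟩
  exact ⟨(MulEquiv.ofBijective _ hb).trans (MulAut.congr e)⟩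

open scoped IsMulCommutative in
theorem mod {F : Type*} [Field F] [Fintype F] (hF : Fintype.card F = 2) :
    Nat.card (Cfsg.Lie.chevG2.group F) = 12096 ∧
      centralizer (commutator (Cfsg.Lie.chevG2.group F) : Set (Cfsg.Lie.chevG2.group F)) = ⊥ ∧
      (∀ g : Cfsg.Lie.chevG2.group F, orderOf g ≠ 14) ∧
      ∀ g : Cfsg.Lie.chevG2.group F, orderOf g ≠ 21 := by
  haveI : Fact (Nat.Prime 2) := ⟨Nat.prime_two⟩
  have h1 : Nat.card (Cfsg.Lie.chevG2.group F) = 12096 := S1059.result hF
  haveI : CharP F 2 := by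
    have := FiniteField.cast_card_eq_zero F
    rw [hF] at this
    exact CharTwo.of_one_ne_zero_of_two_eq_zero one_ne_zero (by exact_mod_cast this)
  have ho : ∀ g : Cfsg.Lie.chevG2.group F, ¬ 14 ∣ orderOf g ∧ ¬ 21 ∣ orderOf g := by
    intro g
    obtain ⟨n, hn, hd⟩ := H14.g2_orderOf 2 hF (m := 3) (by norm_num) g
    constructor <;> intro h <;> have h2 := h.trans hd <;> clear hd h <;> revert h2 <;> revert n <;> decide
  refine ⟨h1, ?_, fun g e => (ho g).1 (e ▸ dvd_rfl), fun g e => (ho g).2 (e ▸ dvd_rfl)⟩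
  have hK : Fintype.card H14.K9 = 9 := H14.card_K9
  obtain ⟨f⟩ := S1057.result hF hK
  have hZ := H14.goodG2.rgD_center F
  haveI := simple_u33 hK
  haveI := f.isSimpleGroup
  have hc := (Nat.card_congr f.toEquiv).trans (card_u33 hK)
  have h2 := (commutator (Cfsg.Lie.chevG2.group F)).card_mul_index
  rw [hc, h1] at h2
  have hi : (commutator (Cfsg.Lie.chevG2.group F)).index = 2 := by omega
  have hZK : center (commutator (Cfsg.Lie.chevG2.group F)) = ⊥ :=
    (inferInstance : (center _).Normal).eq_bot_or_eq_top.resolve_right fun e => by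
      haveI : IsMulCommutative (commutator (Cfsg.Lie.chevG2.group F)) :=
        ⟨⟨fun a b => (mem_center_iff.1 (e.ge (mem_top b)) a)⟩⟩
      haveI : Finite (commutator (Cfsg.Lie.chevG2.group F)) :=
        Nat.finite_of_card_ne_zero (by omega)
      have := IsSimpleGroup.prime_card (α := commutator (Cfsg.Lie.chevG2.group F))
      rw [hc] at this
      norm_num at this
  refine eq_bot_iff.2 fun c hc' => ?_
  have h3 := mem_centralizer_iff.1 hc'
  by_cases h4 : c ∈ commutator (Cfsg.Lie.chevG2.group F)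
  · exact congrArg Subtype.val
      (hZK.le (x := ⟨c, h4⟩) (mem_center_iff.2 fun k => Subtype.ext (h3 k k.2)))
  refine hZ.le (mem_center_iff.2 fun g => ?_)
  by_cases h5 : g ∈ commutator (Cfsg.Lie.chevG2.group F)
  · exact h3 g h5
  · have := h3 _ ((mul_mem_iff_of_index_two hi).2 (iff_of_false h5 h4))
    rwa [← mul_assoc, mul_left_inj] at this

end Cfsg.Agent.G22
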