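import Cfsg.Agent.H19.E3

set_option autoImplicit false
open Cfsg

namespace Cfsg.Agent.G22

open Cfsg.Agent.H19 Cfsg.Agent.H4 Cfsg.Agent.H6

/-- possible signed values at an involution of a character of signed degree `a` -/
def NT (a w : ℤ) : Prop := (∃ m, w = a - 4 * m) ∧ |w| < |a| ∧ (a = 64 → w = 0)

theorem sq2 (n : ℤ) : (n ^ 2 - n) % 2 = 0 := by
  have : n ^ 2 - n = (n - 1) * n := by ring
  rw [this, ← Int.even_iff]
  simpa using Int.even_mul_succ_self (n - 1)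

theorem sq8 (n : ℤ) : (3 * n ^ 2 - 2 * n) % 8 = 0 ∨ (3 * n ^ 2 - 2 * n) % 8 = 1 ∨
    (3 * n ^ 2 - 2 * n) % 8 = 5 := by
  obtain ⟨q, rfl | rfl | rfl | rfl⟩ : ∃ q, n = 4 * q ∨ n = 4 * q + 1 ∨ n = 4 * q + 2 ∨ n = 4 * q + 3 :=
    ⟨n / 4, by omega⟩ <;> ring_nf <;> omega

theorem arA {N a b c d e f : ℤ} (ha : NT 8 a) (hb : NT 36 b) (hc : NT 36 c) (hd : NT (-27) d)
    (he : NT (-27) e) (hf : NT (-27) f) (h1 : 1 + a + b + c + d + e + f = 0)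
    (h2 : (4096 * N : ℂ) = 12096 * (1 + a ^ 2 / 8 + b ^ 2 / 36 + c ^ 2 / 36 - d ^ 2 / 27 -
      e ^ 2 / 27 - f ^ 2 / 27)) : False := by
  have h3 : 4096 * N = 12096 + 1512 * a ^ 2 + 336 * b ^ 2 + 336 * c ^ 2 - 448 * d ^ 2 - 448 * e ^ 2 -
      448 * f ^ 2 := by
    have : (4096 * N : ℂ) = 12096 + 1512 * a ^ 2 + 336 * b ^ 2 + 336 * c ^ 2 - 448 * d ^ 2 -
      448 * e ^ 2 - 448 * f ^ 2 := by linear_combination h2
    exact_mod_cast this
  obtain ⟨⟨a, rfl⟩, ha, -⟩ := ha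
  obtain ⟨b, rfl⟩ : ∃ m, b = 4 * m := by obtain ⟨⟨m, rfl⟩, -⟩ := hb; exact ⟨9 - m, by ring⟩
  obtain ⟨c, rfl⟩ : ∃ m, c = 4 * m := by obtain ⟨⟨m, rfl⟩, -⟩ := hc; exact ⟨9 - m, by ring⟩
  obtain ⟨⟨d, rfl⟩, -⟩ := hd
  obtain ⟨⟨e, rfl⟩, -⟩ := he
  obtain ⟨⟨f, rfl⟩, -⟩ := hf
  have := sq8 b; have := sq8 c; have := sq2 d; have := sq2 e; have := sq2 f
  rw [abs_lt] at ha
  norm_num at ha
  rcases (by omega : a = 1 ∨ a = 2 ∨ a = 3) with rfl | rfl | rfl <;> ring_nf at * <;> omega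

theorem arB {N a b c d e f : ℤ} (ha : NT 8 a) (hb : NT 8 b) (hc : NT 64 c) (hd : NT (-27) d)
    (he : NT (-27) e) (hf : NT (-27) f) (h1 : 1 + a + b + c + d + e + f = 0)
    (h2 : (4096 * N : ℂ) = 12096 * (1 + a ^ 2 / 8 + b ^ 2 / 8 + c ^ 2 / 64 - d ^ 2 / 27 -
      e ^ 2 / 27 - f ^ 2 / 27)) : False := by
  obtain rfl := hc.2.2 rfl
  have h3 : 4096 * N = 12096 + 1512 * a ^ 2 + 1512 * b ^ 2 - 448 * d ^ 2 - 448 * e ^ 2 -
      448 * f ^ 2 := by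
    have : (4096 * N : ℂ) = 12096 + 1512 * a ^ 2 + 1512 * b ^ 2 - 448 * d ^ 2 -
      448 * e ^ 2 - 448 * f ^ 2 := by push_cast at h2; linear_combination h2
    exact_mod_cast this
  obtain ⟨⟨a, rfl⟩, ha, -⟩ := ha
  obtain ⟨⟨b, rfl⟩, hb, -⟩ := hb
  obtain ⟨⟨d, rfl⟩, -⟩ := hd
  obtain ⟨⟨e, rfl⟩, -⟩ := he
  obtain ⟨⟨f, rfl⟩, -⟩ := hf
  have := sq2 d; have := sq2 e; have := sq2 f
  rw [abs_lt] at ha hb
  norm_num at ha hb
  rcases (by omega : a = 1 ∨ a = 2 ∨ a = 3) with rfl | rfl | rfl <;>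
    rcases (by omega : b = 1 ∨ b = 2 ∨ b = 3) with rfl | rfl | rfl <;> ring_nf at * <;> omega

theorem ns {G : Type*} [Group G] [Finite G] [IsSimpleGroup G] : Nat.card G ≠ 12096 := by
  classical
  intro hn
  have hc : ¬ IsMulCommutative G := not_comm_of_card_not_prime (by rw [hn]; norm_num)
  haveI := Fintype.ofFinite G
  haveI : Fact (Nat.Prime 7) := ⟨by norm_num⟩
  obtain ⟨x, K, h, B, L, h1, h2, h3⟩ := d1_mem (p := 7) hc (by rw [hn]; norm_num)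
    (by rw [hn]; norm_num)
  rw [hn, show d1list 12096 7 = [(1, 6, 288, [-27, -27, -27, 36, 36]),
    (1, 6, 288, [8, -27, -27, 36, 36]), (1, 6, 288, [8, -27, -27, -27, 64]),
    (1, 6, 288, [8, -27, -27, -27, 36]), (1, 6, 288, [8, 8, -27, -27, 64]),
    (1, 6, 288, [8, 8, -27, -27, -27])] by decide +kernel] at h1
  have hK : Nat.card K = 1 := by
    simp only [List.mem_cons, Prod.mk.injEq, List.not_mem_nil, or_false] at h1
    tauto
  obtain rfl := Subgroup.card_eq_one.mp hK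
  obtain ⟨J, hJ, c, hcJ⟩ := exists_central_invol (G := G) (a := 6) (by norm_num) (by rw [hn]; norm_num)
  have hv : ∀ (χ : IrrCharacter G) (s : ℤ), χ ≠ irrOne G → s = 1 ∨ s = -1 → ∃ w : ℤ,
      NT (s * charDegree (χ : G → ℂ)) w ∧ (s : ℂ) * (χ : G → ℂ) J = w ∧
      (s : ℂ) * ((χ : G → ℂ) J * (χ : G → ℂ) J / (χ : G → ℂ) 1) =
        w ^ 2 / ((s * charDegree (χ : G → ℂ) : ℤ) : ℂ) := fun χ s e hs => by
    obtain ⟨k, k1, k2, h4⟩ := invol_val hc e hJ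
    refine ⟨s * charDegree (χ : G → ℂ) - 4 * (s * k), ⟨⟨_, rfl⟩, ?_, fun e64 => ?_⟩, ?_, ?_⟩
    · rcases hs with rfl | rfl <;> simp only [abs_lt, lt_abs] <;> omega
    · have d64 : charDegree (χ : G → ℂ) = 64 := by rcases hs with rfl | rfl <;> omega
      rw [apply_eq_zero_of_defect_zero Nat.prime_two χ.2 (by
        rw [hn, d64, show 12096 = 2 ^ 6 * 189 from rfl, show 64 = 2 ^ 6 from rfl,
          Nat.factorization_mul (by norm_num) (by norm_num), Nat.prime_two.factorization_pow]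
        simp [Nat.factorization_eq_zero_of_not_dvd (show ¬ 2 ∣ 189 by norm_num)]) hJ.symm.dvd,
        eq_comm, sub_eq_zero] at h4
      have : charDegree (χ : G → ℂ) = 4 * k := by exact_mod_cast h4
      rw [this]; push_cast; ring
    · rw [h4]; push_cast; ring
    · rw [← χ.2.isCharacter.charDegree_cast, h4]
      have : (charDegree (χ : G → ℂ) : ℂ) ≠ 0 := by exact_mod_cast χ.2.charDegree_pos.ne'
      rcases hs with rfl | rfl <;> push_cast <;> field_simp <;> ring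
  obtain ⟨l, h4, h5⟩ := exists_list_of_map_eq _ _ _ h3
  have h6 := B.card_pairs_eq (u := J) (v := J) (by rw [hJ]; norm_num) (by rw [hJ]; norm_num)
  have h7 := B.rel 1 J (by rw [hJ]; norm_num)
  rw [← Finset.add_sum_erase _ _ B.one_mem, Finset.sum_eq_multiset_sum, ← h4, B.a_one] at h6 h7
  have h8 : ∀ χ ∈ l, ∀ a : ℤ, B.a χ * charDegree (χ : G → ℂ) = a → ∃ w : ℤ,
      NT a w ∧ (B.a χ : ℂ) * (χ : G → ℂ) J = w ∧
      (B.a χ : ℂ) * ((χ : G → ℂ) J * (χ : G → ℂ) J / (χ : G → ℂ) 1) = w ^ 2 / (a : ℂ) :=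
    fun χ hχ a ha => by
      obtain ⟨h9, h10⟩ := Finset.mem_erase.mp (show χ ∈ (B.X.erase (irrOne G)).val from h4 ▸ hχ)
      exact ha ▸ hv χ _ h9 (B.ha χ h10)
  obtain ⟨w, t6, u6, v6⟩ := hv (B.μ 1) (-B.ε) (B.μ_ne_one 1) (by rcases B.hε with e | e <;> simp [e])
  rw [B.deg_μ, neg_mul, h2] at t6 v6
  rw [B.μ_one] at v6
  rw [hcJ, hn] at h6
  generalize Nat.card {q : G × G // IsConj J q.1 ∧ IsConj J q.2 ∧ q.1 * q.2 = x} = n at h6
  simp only [List.mem_cons, Prod.mk.injEq, List.not_mem_nil, or_false] at h1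
  rcases h1 with ⟨-, -, -, rfl⟩ | ⟨-, -, -, rfl⟩ | ⟨-, -, -, rfl⟩ | ⟨-, -, -, rfl⟩ | ⟨-, -, -, rfl⟩ |
    ⟨-, -, -, rfl⟩ <;>
    simp only [List.map_eq_cons_iff, List.map_eq_nil_iff] at h5 <;>
    obtain ⟨χ₁, _, rfl, e1, χ₂, _, rfl, e2, χ₃, _, rfl, e3, χ₄, _, rfl, e4, χ₅, _, rfl, e5, rfl⟩ := h5 <;>
    obtain ⟨w1, t1, u1, v1⟩ := h8 χ₁ (by simp) _ e1 <;>
    obtain ⟨w2, t2, u2, v2⟩ := h8 χ₂ (by simp) _ e2 <;>
    obtain ⟨w3, t3, u3, v3⟩ := h8 χ₃ (by simp) _ e3 <;>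
    obtain ⟨w4, t4, u4, v4⟩ := h8 χ₄ (by simp) _ e4 <;>
    obtain ⟨w5, t5, u5, v5⟩ := h8 χ₅ (by simp) _ e5 <;>
    simp only [Multiset.map_coe, Multiset.sum_coe, List.map_cons, List.map_nil, List.sum_cons,
      List.sum_nil, u1, u2, u3, u4, u5, v1, v2, v3, v4, v5, irrOne_apply] at h6 h7 t6 v6 <;>
    norm_num at t6 <;> push_cast at h6 h7 u6 v6 <;>
    have hl : 1 + w1 + w2 + w3 + w4 + w5 + w = 0 := by
      have : ((1 + w1 + w2 + w3 + w4 + w5 + w : ℤ) : ℂ) = 0 := by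
        push_cast; linear_combination -h7 - u6
      exact_mod_cast this
  · exact arA (N := n * c * c) t6 t4 t5 t1 t2 t3 (by omega) (by push_cast; linear_combination h6 + 12096 * v6)
  · exact arA (N := n * c * c) t1 t4 t5 t2 t3 t6 (by omega) (by push_cast; linear_combination h6 + 12096 * v6)
  · exact arB (N := n * c * c) t1 t6 t5 t2 t3 t4 (by omega) (by push_cast; linear_combination h6 + 12096 * v6)
  · exact arA (N := n * c * c) t1 t5 t6 t2 t3 t4 (by omega) (by push_cast; linear_combination h6 + 12096 * v6)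
  · exact arB (N := n * c * c) t1 t2 t5 t3 t4 t6 (by omega) (by push_cast; linear_combination h6 + 12096 * v6)
  · exact arB (N := n * c * c) t1 t2 t6 t3 t4 t5 (by omega) (by push_cast; linear_combination h6 + 12096 * v6)

end Cfsg.Agent.G22
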