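import Cfsg.Agent.G22.A

set_option autoImplicit false

namespace Cfsg.Agent.G22

open Subgroup
open scoped commutatorElement

namespace PP0

abbrev M := Matrix.SpecialLinearGroup (Fin 2) (ZMod 3)

theorem cM : Nat.card M = 24 := by rw [Nat.card_eq_fintype_card]; decide +kernel

theorem f1 : ∀ Y T : M, Y * Y = 1 → T * T = 1 → Y ≠ 1 → T ≠ 1 → Y = T := by decide +kernel

theorem f3 : ∀ X Y : M, X * X * (X * X) = 1 → Y * Y * (Y * Y) = 1 →
    X * Y * (X * Y) * (X * Y * (X * Y)) = 1 := by decide +kernel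

set_option synthInstance.maxSize 4000 in
set_option synthInstance.maxHeartbeats 400000 in
theorem f2 : ∀ I : M, I * I ≠ 1 → I * I * (I * I) = 1 → ∀ J : M, J * J = I * I → I * J ≠ J * I →
    ∃ P : M, P * P * P = 1 ∧ P * I = J * P ∧ P * J = I * J * P ∧
      (∀ P' : M, P' * P' * P' = 1 → P' * I = J * P' → P' * J = I * J * P' → P' = P) ∧
      (∀ P' : M, P' * P' * P' = 1 → P' * I = I * J * P' → P' * (I * J) = J * P' → P' * P = 1) ∧
      (∀ Y : M, Y * Y * Y = 1 → Y ≠ 1 → ∃ q ∈ [1, I, J, I * J], Y * q = q * P ∨ Y * q * P = q) ∧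
      (∀ Y : M, ∃ q ∈ [1, I, J, I * J], ∃ r ∈ [1, P, P * P], Y = q * r ∨ Y = I * I * q * r) := by
  decide +kernel

theorem z4 {Z : Type*} [Group Z] [Finite Z] (h : Nat.card Z = 4) {x : Z} (hx : x * x ≠ 1) (u : Z) :
    (∃ m : ℕ, u = x ^ m) ∧ (u * u = 1 → u = 1 ∨ u = x * x) ∧ x * x * (x * x) = 1 := by
  classical
  haveI : Fact (Nat.Prime 2) := ⟨Nat.prime_two⟩
  have x4 : x ^ 2 ^ (1 + 1) = 1 := by
    rw [show 2 ^ (1 + 1) = Nat.card Z by rw [h]; rfl]; exact pow_card_eq_one'
  have o : orderOf x = 4 := orderOf_eq_prime_pow (n := 1) (by rwa [pow_one, pow_two]) x4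
  have top : zpowers x = ⊤ := eq_top_of_card_eq _ (by rw [Nat.card_zpowers, o, h])
  have hu : u ∈ zpowers x := top ▸ mem_top u
  rw [mem_zpowers_iff_mem_range_orderOf, o] at hu
  obtain ⟨m, m4, rfl⟩ := Finset.mem_image.1 hu
  have x4' : x * x * (x * x) = 1 := by rw [← x4]; norm_num [pow_succ, mul_assoc]
  refine ⟨⟨m, rfl⟩, fun e => ?_, x4'⟩
  rw [Finset.mem_range] at m4
  interval_cases m
  · exact Or.inl (pow_zero x)
  · exact absurd (by simpa using e) hx
  · exact Or.inr (pow_two x)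
  · exfalso
    apply hx
    rw [← e, ← mul_one (x * x), ← x4']
    simp only [pow_succ, pow_zero, one_mul, mul_assoc]

theorem inv_rel {G : Type*} [Group G] {x u v : G} (h : x * u⁻¹ = v⁻¹ * x) : x * u = v * x := by
  calc x * u = v * (v⁻¹ * x) * u := by group
    _ = v * x := by rw [← h]; group

end PP0

open PP0

variable {G : Type*} [Group G] [Finite G] {a b z : G}

theorem exp (h : HY G) (w : W3 a b z) : ∃ p, PP a b z p ∧
    closure {a, b, z, p} = centralizer {tt a b} ∧
    (∀ y ∈ centralizer ({tt a b} : Set G), orderOf y = 3 →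
      ∃ q ∈ [1, a * b⁻¹, a * a * z, a * b⁻¹ * (a * a * z)], y = q * p * q⁻¹ ∨ y = q * p⁻¹ * q⁻¹) ∧
    ∀ u ∈ centralizer ({tt a b} : Set G), ∀ v ∈ centralizer ({tt a b} : Set G),
      u * u = 1 → v * v = 1 → (u * v) ^ 4 = 1 := by
  haveI : Fact (Nat.Prime 2) := ⟨Nat.prime_two⟩
  have z2 := w.z2
  have zz : ∀ x, z * (z * x) = x := fun x => by rw [← mul_assoc, z2, one_mul]
  have za : z * a = b * z := by rw [← w.za, mul_assoc (z * a), z2, mul_one]
  have zb : z * b = a * z := by rw [← w.za, mul_assoc z, zz]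
  have za' : ∀ x, z * (a * x) = b * (z * x) := fun x => by rw [← mul_assoc, za, mul_assoc]
  have zb' : ∀ x, z * (b * x) = a * (z * x) := fun x => by rw [← mul_assoc, zb, mul_assoc]
  have ba := w.ab.symm
  have ba' : ∀ x, b * (a * x) = a * (b * x) := fun x => by rw [← mul_assoc, ba, mul_assoc]
  have a4 : a * (a * (a * a)) = 1 := by
    have := pow_orderOf_eq_one a
    rw [w.oa] at this
    rw [← this]; simp only [pow_succ, pow_zero, one_mul, mul_assoc]
  have a4' : ∀ x, a * (a * (a * (a * x))) = x := fun x => by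
    have := congrArg (· * x) a4
    simpa only [mul_assoc, one_mul] using this
  have b4 : b * (b * (b * b)) = 1 := by
    rw [← w.za]; simp only [mul_assoc, zz, a4', z2]
  have b4' : ∀ x, b * (b * (b * (b * x))) = x := fun x => by
    have := congrArg (· * x) b4
    simpa only [mul_assoc, one_mul] using this
  have ai : a⁻¹ = a * (a * a) := inv_eq_of_mul_eq_one_right a4
  have bi : b⁻¹ = b * (b * b) := inv_eq_of_mul_eq_one_right b4
  have zi : z⁻¹ = z := inv_eq_of_mul_eq_one_right z2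
  have a2 : a * a ≠ 1 := fun e => by
    have := orderOf_dvd_of_pow_eq_one (show a ^ 2 = 1 by rw [pow_two, e])
    rw [w.oa] at this; omega
  have dis : ∀ x ∈ zpowers a, x ∈ zpowers b → x = 1 := fun x h1 h2 =>
    mem_bot.1 (w.dis ▸ mem_inf.2 ⟨h1, h2⟩)
  have ma := mem_zpowers a
  have mb := mem_zpowers b
  have t2 : tt a b * tt a b = 1 := by simp only [tt, mul_assoc, ba', a4', b4]
  have t1 : tt a b ≠ 1 := fun e => a2 (dis _ (mul_mem ma ma) (by
    rw [eq_inv_of_mul_eq_one_left e]; exact inv_mem (mul_mem mb mb)))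
  have ot : orderOf (tt a b) = 2 := orderOf_eq_prime (by rw [pow_two, t2]) t1
  set A := centralizer ({tt a b} : Set G) with hA
  have aA : a ∈ A := mem_centralizer_singleton_iff.2 (by simp only [tt, mul_assoc, ba', ba])
  have bA : b ∈ A := mem_centralizer_singleton_iff.2 (by simp only [tt, mul_assoc, ba', ba])
  have zA : z ∈ A := mem_centralizer_singleton_iff.2 (by simp only [tt, mul_assoc, ba', za', zb', zb])
  obtain ⟨φ⟩ := h.sl _ ot
  let e : M →* G := A.subtype.comp ((commutator A).subtype.comp φ.symm.toMonoidHom)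
  have ei : Function.Injective e :=
    A.subtype_injective.comp ((commutator A).subtype_injective.comp φ.symm.injective)
  have eA : ∀ Y, e Y ∈ A := fun Y => (φ.symm Y).1.2
  have eL : ∀ Y, (⟨e Y, eA Y⟩ : A) ∈ commutator A := fun Y => (φ.symm Y).2
  have Le : ∀ g : A, g ∈ commutator A → ∃ Y, e Y = g := fun g hg =>
    ⟨φ ⟨g, hg⟩, by simp [e]⟩
  have cj : ∀ g ∈ A, ∀ Y, ∃ Y', e Y' = g * e Y * g⁻¹ := fun g hg Y =>
    Le _ ((inferInstance : (commutator A).Normal).conj_mem _ (eL Y) ⟨g, hg⟩)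
  have c4 : Nat.card (A ⧸ commutator A) = 4 := by
    have := card_eq_card_quotient_mul_card_subgroup (commutator A)
    rw [h.cen _ ot, Nat.card_congr φ.toEquiv, cM] at this
    omega
  let π := QuotientGroup.mk' (commutator A)
  have hπ : ∀ g : A, π g = 1 ↔ ∃ Y, e Y = g := fun g =>
    ⟨fun hg => Le g ((QuotientGroup.eq_one_iff g).1 hg),
      fun ⟨Y, hY⟩ => (QuotientGroup.eq_one_iff g).2 (by
        rw [show g = ⟨e Y, eA Y⟩ from Subtype.ext hY.symm]; exact eL Y)⟩
  obtain ⟨I, hI⟩ : ∃ I, e I = a * b⁻¹ := by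
    obtain ⟨I, hI⟩ := Le ⁅(⟨a, aA⟩ : A), ⟨z, zA⟩⁆
      (commutator_mem_commutator (mem_top _) (mem_top _))
    refine ⟨I, hI.trans ?_⟩
    show a * z * a⁻¹ * z⁻¹ = _
    simp only [ai, bi, zi, mul_assoc, za', z2, mul_one]
  have II : e (I * I) = tt a b := by
    rw [map_mul, hI]; simp only [tt, bi, mul_assoc, ba', b4']
  have I1 : I * I ≠ 1 := fun q => t1 (by rw [← II, q, map_one])
  have I4 : I * I * (I * I) = 1 := ei (by rw [map_mul, II, t2, map_one])
  have inv : ∀ Y, e Y * e Y = 1 → e Y ≠ 1 → e Y = tt a b := fun Y h1 h2 => by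
    rw [f1 Y (I * I) (ei (by rw [map_mul, h1, map_one])) I4 (fun q => h2 (by rw [q, map_one])) I1,
      II]
  have πa : π ⟨a, aA⟩ * π ⟨a, aA⟩ ≠ 1 := by
    rw [← map_mul, Ne, hπ]
    rintro ⟨Y, hY⟩
    have hY' : e Y = a * a := hY
    have := inv Y (by rw [hY', mul_assoc, a4]) (by rw [hY']; exact a2)
    rw [hY'] at this
    have q : b * b = 1 := mul_left_cancel (this.symm.trans (mul_one _).symm)
    apply a2
    rw [← w.za] at q
    simp only [mul_assoc, zz] at q
    calc a * a = z * (z * (a * (a * z))) * z := by simp only [mul_assoc, zz, z2, mul_one]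
      _ = 1 := by rw [q, mul_one, z2]
  obtain ⟨J, hJ⟩ : ∃ J, e J = a * a * z := by
    obtain ⟨-, q, q4⟩ := z4 c4 πa (π ⟨z, zA⟩)
    rcases q (by rw [← map_mul, ← map_one π]; exact congrArg π (Subtype.ext z2)) with q | q
    · exfalso
      obtain ⟨Y, hY⟩ := (hπ _).1 q
      have hY' : e Y = z := hY
      have ab : a ≠ b := fun q => a2 (by rw [dis a ma (q ▸ ma), one_mul])
      have z1 : z ≠ 1 := fun q => ab (by rw [← w.za, q, one_mul, mul_one])
      have := inv Y (by rw [hY', z2]) (by rw [hY']; exact z1)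
      rw [hY'] at this
      apply ab
      have q2 := mem_centralizer_singleton_iff.1 aA
      rw [← this, za] at q2
      exact mul_right_cancel q2
    · exact (hπ (⟨a, aA⟩ * ⟨a, aA⟩ * ⟨z, zA⟩)).1 (by rw [map_mul, map_mul, q, q4])
  have JJ : J * J = I * I := ei (by
    rw [II, map_mul, hJ]; simp only [tt, mul_assoc, za', z2, mul_one])
  have IJ : I * J ≠ J * I := fun q => t1 (by
    have q2 := congrArg e q
    rw [map_mul, map_mul, hI, hJ] at q2
    calc tt a b = a * b⁻¹ * (a * a * z) * (a * a * z * (a * b⁻¹))⁻¹ := by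
          simp only [tt, mul_inv_rev, inv_inv, ai, bi, zi, mul_assoc, za', zb', zz, ba', a4', b4',
            za, zb, ba, z2, mul_one]
      _ = 1 := by rw [q2, mul_inv_cancel])
  obtain ⟨P, P3, PI, PJ, u1, u2, u3, u4⟩ := f2 I I1 I4 J JJ IJ
  have pI : e P * (a * b⁻¹) = a * a * z * e P := by rw [← hI, ← hJ, ← map_mul, PI, map_mul]
  have pJ : e P * (a * a * z) = a * b⁻¹ * (a * a * z) * e P := by
    rw [← hI, ← hJ, ← map_mul, PJ, map_mul, map_mul]
  have p3 : e P * e P * e P = 1 := by rw [← map_mul, ← map_mul, P3, map_one]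
  have c3 : ∀ g Y, e Y = g * e P * g⁻¹ → Y * Y * Y = 1 := fun g Y q => ei (by
    rw [map_mul, map_mul, q, conj_mul, conj_mul, p3, map_one]; group)
  have tr : ∀ g x y x' y' : G, e P * x = y * e P → g * x = x' * g → g * y = y' * g →
      g * e P * g⁻¹ * x' = y' * (g * e P * g⁻¹) := fun g x y x' y' q1 q2 q3 => by
    calc _ = g * e P * g⁻¹ * (x' * g) * g⁻¹ := by group
      _ = g * (e P * x) * g⁻¹ := by rw [← q2]; group
      _ = g * y * e P * g⁻¹ := by rw [q1]; group
      _ = _ := by rw [q3]; group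
  have ci : a * b * (a * b⁻¹) = a * b⁻¹ * (a * b) := by simp only [bi, mul_assoc, ba', b4', b4]
  have cj' : a * b * (a * a * z) = a * a * z * (a * b) := by
    simp only [mul_assoc, ba', za', zb]
  have pc : e P * (a * b) = a * b * e P := by
    obtain ⟨Y, hY⟩ := cj _ (mul_mem aA bA) P
    have := u1 Y (c3 _ _ hY)
      (ei (by rw [map_mul, map_mul, hY, hI, hJ]; exact tr _ _ _ _ _ pI ci cj'))
      (ei (by
        rw [map_mul, map_mul, map_mul, hY, hI, hJ]
        exact tr _ _ _ _ _ pJ cj' (by rw [← mul_assoc, ci, mul_assoc, cj', ← mul_assoc])))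
    rw [this, eq_mul_inv_iff_mul_eq] at hY
    exact hY
  have pd : a * z * e P * (a * z)⁻¹ = (e P)⁻¹ := by
    obtain ⟨Y, hY⟩ := cj _ (mul_mem aA zA) P
    have d1 : a * z * (a * b⁻¹) = (a * b⁻¹)⁻¹ * (a * z) := by
      simp only [mul_inv_rev, inv_inv, ai, bi, mul_assoc, za', zb', zb, ba', a4', b4']
    have d2 : a * z * (a * a * z) = (a * b⁻¹ * (a * a * z))⁻¹ * (a * z) := by
      simp only [mul_inv_rev, inv_inv, ai, bi, zi, mul_assoc, za', zb', zb, ba', a4', b4', z2,
        mul_one]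
    have d3 : a * z * (a * b⁻¹ * (a * a * z)) = (a * a * z)⁻¹ * (a * z) := by
      simp only [mul_inv_rev, inv_inv, ai, bi, zi, mul_assoc, za', zb', zb, ba', ba, a4', b4', z2,
        mul_one]
    have := u2 Y (c3 _ _ hY)
      (ei (by rw [map_mul, map_mul, map_mul, hY, hI, hJ]; exact inv_rel (tr _ _ _ _ _ pI d1 d2)))
      (ei (by rw [map_mul, map_mul, map_mul, hY, hI, hJ]; exact inv_rel (tr _ _ _ _ _ pJ d2 d3)))
    rw [← hY]
    exact eq_inv_of_mul_eq_one_left (by rw [← map_mul, this, map_one])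
  have gen : ∀ H : Subgroup G, a ∈ H → b ∈ H → z ∈ H → e P ∈ H → A ≤ H := by
    intro H h1 h2 h3 h4 g hg
    have hL : ∀ Y, e Y ∈ H := by
      intro Y
      have i1 : e I ∈ H := hI ▸ mul_mem h1 (inv_mem h2)
      have j1 : e J ∈ H := hJ ▸ mul_mem (mul_mem h1 h1) h3
      obtain ⟨q, hq, r, hr, q'⟩ := u4 Y
      have q1 : e q ∈ H := by
        simp only [List.mem_cons, List.not_mem_nil, or_false] at hq
        rcases hq with rfl | rfl | rfl | rfl
        exacts [map_one e ▸ one_mem H, i1, j1, map_mul e _ _ ▸ mul_mem i1 j1]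
      have r1 : e r ∈ H := by
        simp only [List.mem_cons, List.not_mem_nil, or_false] at hr
        rcases hr with rfl | rfl | rfl
        exacts [map_one e ▸ one_mem H, h4, map_mul e _ _ ▸ mul_mem h4 h4]
      rcases q' with rfl | rfl <;> simp only [map_mul]
      exacts [mul_mem q1 r1, mul_mem (mul_mem (mul_mem i1 i1) q1) r1]
    obtain ⟨⟨m, hm⟩, -⟩ := z4 c4 πa (π ⟨g, hg⟩)
    obtain ⟨Y, hY⟩ := (hπ ((⟨a, aA⟩ ^ m)⁻¹ * ⟨g, hg⟩)).1
      (by rw [map_mul, map_inv, map_pow, hm, inv_mul_cancel])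
    have hY' : e Y = (a ^ m)⁻¹ * g := hY
    rw [show g = a ^ m * e Y by rw [hY']; group]
    exact mul_mem (pow_mem h1 m) (hL Y)
  refine ⟨e P, ⟨by rw [pow_three', p3], pc, by rw [pI, mul_inv_cancel_right],
    by rw [pJ, mul_inv_cancel_right], pd⟩, le_antisymm ?_ ?_, fun y hy oy => ?_, ?_⟩
  · rw [closure_le]
    rintro x (rfl | rfl | rfl | rfl)
    exacts [aA, bA, zA, eA P]
  · exact gen _ (subset_closure (by simp)) (subset_closure (by simp)) (subset_closure (by simp))
      (subset_closure (by simp))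
  · have y3 : y ^ 3 = 1 := oy ▸ pow_orderOf_eq_one y
    obtain ⟨Y, hY⟩ := (hπ (⟨y, hy⟩ ^ 4)).1 (by rw [map_pow, ← c4, pow_card_eq_one'])
    have hY' : e Y = y := by
      rw [hY]; show y ^ 4 = y
      rw [pow_succ, y3, one_mul]
    obtain ⟨q, hq, r⟩ := u3 Y (ei (by rw [map_mul, map_mul, hY', ← pow_three', y3, map_one]))
      (fun q => by rw [← hY', q, map_one, orderOf_one] at oy; omega)
    refine ⟨e q, ?_, ?_⟩
    · simp only [List.mem_cons, List.not_mem_nil, or_false] at hq ⊢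
      rcases hq with rfl | rfl | rfl | rfl <;> simp [hI, hJ]
    · rcases r with r | r
      · left; rw [← map_mul, ← r, map_mul, hY', mul_inv_cancel_right]
      · right
        have := congrArg e r
        rw [map_mul, map_mul, hY'] at this
        calc y = y * e q * e P * (e P)⁻¹ * (e q)⁻¹ := by group
          _ = _ := by rw [this]
  · have cc : ∀ g ∈ A, g * (a * b) = a * b * g := fun g hg => mem_centralizer_singleton_iff.1
      (gen (centralizer {a * b}) (mem_centralizer_singleton_iff.2 (by simp only [mul_assoc, ba]))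
        (mem_centralizer_singleton_iff.2 (by simp only [mul_assoc, ba']))
        (mem_centralizer_singleton_iff.2 (by simp only [mul_assoc, ba', za', zb]))
        (mem_centralizer_singleton_iff.2 pc) hg)
    have c4' : (a * b) ^ 4 = 1 := by
      simp only [pow_succ, pow_zero, one_mul, mul_assoc, ba', a4', b4]
    have dec : ∀ u ∈ A, u * u = 1 → ∃ (n : ℕ) (Y : M), u = (a * b) ^ n * e Y ∧
        Y * Y * (Y * Y) = 1 := by
      intro u hu u2
      obtain ⟨n, Y, hY⟩ : ∃ (n : ℕ) (Y : M), u = (a * b) ^ n * e Y := by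
        obtain ⟨-, q, q4⟩ := z4 c4 πa (π ⟨u, hu⟩)
        rcases q (by rw [← map_mul, ← map_one π]; exact congrArg π (Subtype.ext u2)) with q | q
        · obtain ⟨Y, hY⟩ := (hπ _).1 q
          exact ⟨0, Y, by rw [pow_zero, one_mul, hY]⟩
        · obtain ⟨Y, hY⟩ := (hπ (⟨a, aA⟩ * ⟨a, aA⟩ * ⟨u, hu⟩)).1 (by rw [map_mul, map_mul, q, q4])
          have hY' : e Y = a * a * u := hY
          refine ⟨1, I * Y, ?_⟩
          rw [map_mul, hI, hY']
          simp only [pow_one, bi, mul_assoc, ba', a4', b4']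
      refine ⟨n, Y, hY, ei ?_⟩
      have cm : Commute ((a * b) ^ n) (e Y) := Commute.pow_left (cc _ (eA Y)).symm n
      have : u ^ 4 = 1 := by
        rw [show (4 : ℕ) = 2 * 2 from rfl, pow_mul, pow_two u, u2, one_pow]
      rw [hY, cm.mul_pow, ← pow_mul, mul_comm n, pow_mul, c4', one_pow, one_mul] at this
      rw [map_one, ← this]
      simp only [map_mul, pow_succ, pow_zero, one_mul, mul_assoc]
    intro u hu v hv u2 v2
    obtain ⟨n, X, rfl, hX⟩ := dec u hu u2
    obtain ⟨m, Y, rfl, hY⟩ := dec v hv v2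
    have cm : ∀ k Z, Commute ((a * b) ^ k) (e Z) := fun k Z => Commute.pow_left (cc _ (eA Z)).symm k
    have : (a * b) ^ n * e X * ((a * b) ^ m * e Y) = (a * b) ^ (n + m) * e (X * Y) := by
      rw [pow_add, map_mul, mul_assoc, ← mul_assoc (e X), ← (cm m X).eq]
      simp only [mul_assoc]
    rw [this, (cm _ _).mul_pow, ← pow_mul, mul_comm (n + m), pow_mul, c4', one_pow, one_mul,
      ← map_pow, ← map_one e, ← f3 X Y hX hY]
    simp only [pow_succ, pow_zero, one_mul, mul_assoc]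

end Cfsg.Agent.G22
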