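import Cfsg.Agent.G22.A

set_option autoImplicit false
set_option linter.style.haveILetI false

namespace Cfsg.Agent.G22

open Subgroup

variable {G : Type*} [Group G]

namespace RX

def UU (a b : G) (h : a * b = b * a) : Subgroup G where
  carrier := {x | ∃ i j : ℤ, x = a ^ i * b ^ j}
  one_mem' := ⟨0, 0, by simp⟩
  mul_mem' := by
    rintro _ _ ⟨i, j, rfl⟩ ⟨k, l, rfl⟩
    refine ⟨i + k, j + l, ?_⟩
    have hc : Commute (b ^ j) (a ^ k) := (show Commute a b from h).symm.zpow_zpow j k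
    rw [zpow_add, zpow_add, mul_assoc, ← mul_assoc (b ^ j), hc.eq]; simp only [mul_assoc]
  inv_mem' := by
    rintro _ ⟨i, j, rfl⟩
    refine ⟨-i, -j, ?_⟩
    have hc : Commute (a ^ (-i)) (b ^ (-j)) := (show Commute a b from h).zpow_zpow _ _
    rw [hc.eq]; simp

theorem c23 {y e : G} (h3 : y ^ 3 = 1) (h : y * y * e = e * (y * y)) : y * e = e * y := by
  have hy : y = (y * y) * (y * y) := by
    calc y = y * y ^ 3 := by rw [h3, mul_one]
      _ = _ := by simp only [pow_succ, pow_zero, one_mul, mul_assoc]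
  have hc : Commute (y * y) e := h
  have := hc.mul_left hc
  rw [← hy] at this
  exact this.eq

section
variable {a b z : G} (w : W3 a b z)
include w

theorem ma : a ∈ UU a b w.ab := ⟨1, 0, by simp⟩
theorem mb : b ∈ UU a b w.ab := ⟨0, 1, by simp⟩
theorem zi : z⁻¹ = z := inv_eq_of_mul_eq_one_right w.z2
theorem za' : z * a * z⁻¹ = b := by rw [zi w, w.za]
theorem zb' : z * b * z⁻¹ = a := by
  rw [← w.za, zi w]
  calc z * (z * a * z) * z = (z * z) * a * (z * z) := by simp only [mul_assoc]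
    _ = a := by rw [w.z2]; simp
theorem ob : orderOf b = 4 := by
  rw [← za' w, ← w.oa]; exact (MulAut.conj z).orderOf_eq a
theorem a4 : a ^ 4 = 1 := by rw [← w.oa]; exact pow_orderOf_eq_one a
theorem b4 : b ^ 4 = 1 := by rw [← ob w]; exact pow_orderOf_eq_one b

theorem comm {u v : G} (hu : u ∈ UU a b w.ab) (hv : v ∈ UU a b w.ab) : Commute u v := by
  obtain ⟨i, j, rfl⟩ := hu
  obtain ⟨k, l, rfl⟩ := hv
  have h : Commute a b := w.ab
  exact ((Commute.zpow_zpow_self a i k).mul_right (h.zpow_zpow i l)).mul_left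
    ((h.symm.zpow_zpow j k).mul_right (Commute.zpow_zpow_self b j l))

theorem pow4 {u : G} (hu : u ∈ UU a b w.ab) : u ^ 4 = 1 := by
  obtain ⟨i, j, rfl⟩ := hu
  have h : Commute a b := w.ab
  rw [(h.zpow_zpow i j).mul_pow, ← zpow_natCast, ← zpow_natCast, zpow_comm, zpow_comm b,
    zpow_natCast, zpow_natCast, a4 w, b4 w]; simp

theorem sq2 {u : G} (hu : u ∈ UU a b w.ab) : (u * u) * (u * u) = 1 := by
  rw [← pow4 w hu]; simp only [pow_succ, pow_zero, one_mul, mul_assoc]

theorem conjU {g : G} (ha : g * a * g⁻¹ ∈ UU a b w.ab) (hb : g * b * g⁻¹ ∈ UU a b w.ab)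
    {u : G} (hu : u ∈ UU a b w.ab) : g * u * g⁻¹ ∈ UU a b w.ab := by
  obtain ⟨i, j, rfl⟩ := hu
  have : g * (a ^ i * b ^ j) * g⁻¹ = (g * a * g⁻¹) ^ i * (g * b * g⁻¹) ^ j := by
    rw [conj_zpow, conj_zpow]; group
  rw [this]
  exact mul_mem (zpow_mem ha i) (zpow_mem hb j)

theorem zU {u : G} (hu : u ∈ UU a b w.ab) : z * u * z⁻¹ ∈ UU a b w.ab :=
  conjU w (by rw [za' w]; exact mb w) (by rw [zb' w]; exact ma w) hu

theorem indep {i j : ℤ} (h : a ^ i * b ^ j = 1) : (4 : ℤ) ∣ i ∧ (4 : ℤ) ∣ j := by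
  have h1 : a ^ i = (b ^ j)⁻¹ := eq_inv_of_mul_eq_one_left h
  have h2 : a ^ i ∈ zpowers a ⊓ zpowers b :=
    ⟨zpow_mem (mem_zpowers a) i, by rw [h1]; exact (zpowers b).inv_mem (zpow_mem (mem_zpowers b) j)⟩
  rw [w.dis, mem_bot] at h2
  have h3 : b ^ j = 1 := by rw [h2] at h; simpa using h
  have h4 := orderOf_dvd_iff_zpow_eq_one.mpr h2
  have h5 := orderOf_dvd_iff_zpow_eq_one.mpr h3
  rw [w.oa] at h4; rw [ob w] at h5
  exact ⟨by exact_mod_cast h4, by exact_mod_cast h5⟩

theorem inj {i j k l : ℤ} (h : a ^ i * b ^ j = a ^ k * b ^ l) :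
    (4 : ℤ) ∣ i - k ∧ (4 : ℤ) ∣ j - l := by
  apply indep w
  have : a ^ (i - k) * b ^ (j - l) = (a ^ k)⁻¹ * (a ^ i * b ^ j) * (b ^ l)⁻¹ := by group
  rw [this, h]; group

theorem red (x : G) (hx : x ^ 4 = 1) (i : ℤ) (hi : (4 : ℤ) ∣ i + i) : x ^ i = 1 ∨ x ^ i = x * x := by
  have h4 : x ^ (4 : ℤ) = 1 := by exact_mod_cast hx
  obtain ⟨m, hm | hm⟩ : ∃ m : ℤ, i = 4 * m ∨ i = 4 * m + 2 := ⟨i / 4, by omega⟩
  · left; rw [hm, zpow_mul, h4, one_zpow]
  · right; rw [hm, zpow_add, zpow_mul, h4, one_zpow, one_mul, zpow_two]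

theorem invs {u : G} (hu : u ∈ UU a b w.ab) (h2 : u * u = 1) :
    u = 1 ∨ u = a * a ∨ u = b * b ∨ u = a * a * (b * b) := by
  obtain ⟨i, j, rfl⟩ := hu
  have h : Commute a b := w.ab
  have h1 : a ^ (i + i) * b ^ (j + j) = 1 := by
    rw [← h2, zpow_add, zpow_add, mul_assoc, mul_assoc, ← mul_assoc (b ^ j) (a ^ i),
      (h.symm.zpow_zpow j i).eq]; simp only [mul_assoc]
  obtain ⟨hi, hj⟩ := indep w h1
  rcases red w a (a4 w) i hi with e | e <;> rcases red w b (b4 w) j hj with f | f <;>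
    rw [e, f] <;> simp

theorem nA : a * a ≠ 1 := fun h => by
  have := (indep w (i := 2) (j := 0) (by rw [zpow_two, h]; simp)).1; omega
theorem nB : b * b ≠ 1 := fun h => by
  have := (indep w (i := 0) (j := 2) (by rw [zpow_two, h]; simp)).2; omega
theorem nT : a * a * (b * b) ≠ 1 := fun h => by
  have := (indep w (i := 2) (j := 2) (by rw [zpow_two, zpow_two, h])).2; omega
theorem nAB : a * a ≠ b * b := fun h => nT w (by rw [h]; exact sq2 w (mb w))
theorem nTA : a * a * (b * b) ≠ a * a := fun h => nB w (by simpa using h)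
theorem nTB : a * a * (b * b) ≠ b * b := fun h => nA w (by simpa using h)

theorem four {s e f : G} (hs : s ∈ UU a b w.ab) (he : e ∈ UU a b w.ab) (hf : f ∈ UU a b w.ab)
    (s2 : s * s = 1) (e2 : e * e = 1) (f2 : f * f = 1) (s1 : s ≠ 1) (e1 : e ≠ 1) (f1 : f ≠ 1)
    (se : s ≠ e) (sf : s ≠ f) (ef : e ≠ f) : f = s * e := by
  have hA := sq2 w (ma w)
  have hB := sq2 w (mb w)
  have hAB : a * a * (b * b) = b * b * (a * a) :=
    (comm w (mul_mem (ma w) (ma w)) (mul_mem (mb w) (mb w))).eq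
  have h1 := invs w hs s2
  have h2 := invs w he e2
  have h3 := invs w hf f2
  generalize a * a = A at *
  generalize b * b = B at *
  have k1 : B = A * (A * B) := by rw [← mul_assoc, hA, one_mul]
  have k2 : B = A * B * A := by rw [hAB, mul_assoc, hA, mul_one]
  have k3 : A = B * (A * B) := by rw [hAB, ← mul_assoc, hB, one_mul]
  have k4 : A = A * B * B := by rw [mul_assoc, hB, mul_one]
  rcases h1 with rfl | rfl | rfl | rfl <;> rcases h2 with h2 | h2 | h2 | h2 <;>
    rcases h3 with h3 | h3 | h3 | h3 <;>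
    first
    | exact absurd rfl s1
    | exact absurd h2 e1
    | exact absurd h3 f1
    | exact absurd h2.symm se
    | exact absurd h3.symm sf
    | exact absurd (h2.trans h3.symm) ef
    | (rw [h2, h3]; done)
    | (rw [h2, h3]; first | exact hAB | exact k1 | exact k2 | exact k3 | exact k4)

theorem card16 [Finite G] : 16 ∣ Nat.card (UU a b w.ab) := by
  have hp : IsPGroup 2 (UU a b w.ab) := fun x => ⟨2, Subtype.ext (pow4 w x.2)⟩
  haveI : Fact (Nat.Prime 2) := ⟨Nat.prime_two⟩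
  obtain ⟨k, hk⟩ := IsPGroup.iff_card.mp hp
  have hle : Nat.card (Fin 4 × Fin 4) ≤ Nat.card (UU a b w.ab) := by
    refine Nat.card_le_card_of_injective
      (fun p => (⟨a ^ ((p.1 : ℕ) : ℤ) * b ^ ((p.2 : ℕ) : ℤ), _, _, rfl⟩ : UU a b w.ab)) ?_
    rintro ⟨i, j⟩ ⟨k, l⟩ h
    obtain ⟨h1, h2⟩ := inj w (congrArg Subtype.val h)
    have := i.2; have := j.2; have := k.2; have := l.2
    simp only at h1 h2
    refine Prod.ext (Fin.ext ?_) (Fin.ext ?_) <;> simp only <;> omega
  rw [hk] at hle ⊢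
  have h16 : Nat.card (Fin 4 × Fin 4) = 2 ^ 4 := by simp
  rw [h16] at hle
  exact pow_dvd_pow 2 ((Nat.pow_le_pow_iff_right (by norm_num)).mp hle)

/-- no element of order three normalising `U` fixes an involution of `U` -/
theorem lemX [Finite G] (h : HY G) {s y : G} (hs : s ∈ UU a b w.ab) (s2 : s * s = 1) (s1 : s ≠ 1)
    (hN : ∀ u ∈ UU a b w.ab, y * u * y⁻¹ ∈ UU a b w.ab) (h3 : y ^ 3 = 1) (hys : y * s = s * y) :
    y = 1 := by
  by_contra y1
  have fs : y * s * y⁻¹ = s := by rw [hys]; simp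
  have fixe : ∀ e ∈ UU a b w.ab, e * e = 1 → y * e = e * y := by
    intro e he e2
    by_cases e1 : e = 1
    · simp [e1]
    by_cases se : s = e
    · rw [← se]; exact hys
    by_cases ef : e = y * e * y⁻¹
    · exact mul_inv_eq_iff_eq_mul.mp ef.symm
    have hf := four w hs he (hN e he) s2 e2
      (by calc y * e * y⁻¹ * (y * e * y⁻¹) = y * (e * e) * y⁻¹ := by group
            _ = 1 := by rw [e2]; simp) s1 e1
      (fun h' => e1 (by simpa using h')) se
      (fun h' => se (by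
        have : y * s * y⁻¹ = y * e * y⁻¹ := fs.trans h'
        simpa using this)) ef
    apply c23 h3
    apply mul_inv_eq_iff_eq_mul.mp
    calc y * y * e * (y * y)⁻¹ = y * (y * e * y⁻¹) * y⁻¹ := by group
      _ = (y * s * y⁻¹) * (y * e * y⁻¹) := by rw [hf]; nth_rewrite 2 [← hf]; group
      _ = e := by rw [fs, hf, ← mul_assoc, s2, one_mul]
  have fixu : ∀ u ∈ UU a b w.ab, y * u = u * y := by
    intro u hu
    set v := y * u * y⁻¹ with hv
    have hvU : v ∈ UU a b w.ab := hN u hu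
    have hvv : v * v = u * u := by
      have := fixe (u * u) (mul_mem hu hu) (sq2 w hu)
      calc v * v = y * (u * u) * y⁻¹ := by rw [hv]; group
        _ = u * u := by rw [this]; simp
    have hc : Commute u⁻¹ v := comm w (inv_mem hu) hvU
    have ho : (v * u⁻¹) * (v * u⁻¹) = 1 := by
      calc (v * u⁻¹) * (v * u⁻¹) = v * (u⁻¹ * v) * u⁻¹ := by group
        _ = (v * v) * (u * u)⁻¹ := by rw [hc.eq]; group
        _ = 1 := by rw [hvv]; simp
    have hω := fixe (v * u⁻¹) (mul_mem hvU (inv_mem hu)) ho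
    apply c23 h3
    apply mul_inv_eq_iff_eq_mul.mp
    calc y * y * u * (y * y)⁻¹ = y * (v * u⁻¹) * y⁻¹ * v := by rw [hv]; group
      _ = (v * u⁻¹) * (v * u⁻¹) * u := by rw [hω]; group
      _ = u := by rw [ho, one_mul]
  have os : orderOf s = 2 := by
    haveI : Fact (Nat.Prime 2) := ⟨Nat.prime_two⟩
    exact orderOf_eq_prime (by rw [pow_two, s2]) s1
  have oy : orderOf y = 3 := by
    haveI : Fact (Nat.Prime 3) := ⟨Nat.prime_three⟩
    exact orderOf_eq_prime h3 y1
  set A := centralizer ({s} : Set G) with hA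
  set K := closure ({a, b, y} : Set G) with hK
  have hKc : IsMulCommutative K := by
    apply Subgroup.isMulCommutative_closure
    have h1 := fixu a (ma w)
    have h2 := fixu b (mb w)
    have h4 := w.ab
    rintro x (rfl | rfl | rfl) x' (rfl | rfl | rfl) <;> simp only [*]
  have hKA : K ≤ A := by
    rw [hK, closure_le]
    rintro x (rfl | rfl | rfl) <;> rw [SetLike.mem_coe, hA, mem_centralizer_singleton_iff]
    · exact (comm w (ma w) hs).eq
    · exact (comm w (mb w) hs).eq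
    · exact hys
  have hUK : UU a b w.ab ≤ K := by
    rintro _ ⟨i, j, rfl⟩
    exact mul_mem (zpow_mem (subset_closure (by simp)) i) (zpow_mem (subset_closure (by simp)) j)
  have d16 : 16 ∣ Nat.card K := (card16 w).trans (card_dvd_of_le hUK)
  have d3 : 3 ∣ Nat.card K := by
    rw [← oy]; exact orderOf_dvd_natCard K (subset_closure (by simp))
  have d48 : 48 ∣ Nat.card K := Nat.Coprime.mul_dvd_of_dvd_of_dvd (by norm_num : Nat.Coprime 16 3) d16 d3
  have cA : Nat.card A = 96 := h.cen s os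
  have cK : Nat.card (K.subgroupOf A) = Nat.card K :=
    Nat.card_congr (subgroupOfEquivOfLe hKA).toEquiv
  have hix := (K.subgroupOf A).card_mul_index
  rw [cK, cA] at hix
  obtain ⟨m, hm⟩ := d48
  rw [hm] at hix
  have hi : (K.subgroupOf A).index = 1 ∨ (K.subgroupOf A).index = 2 := by
    have : (K.subgroupOf A).index ∣ 2 := ⟨m, by nlinarith⟩
    exact (Nat.dvd_prime Nat.prime_two).mp this
  have hle : _root_.commutator A ≤ K.subgroupOf A := by
    rcases hi with hi | hi
    · rw [index_eq_one.mp hi]; exact le_top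
    · rw [_root_.commutator, commutator_le]
      intro g _ g' _
      rw [commutatorElement_def, mul_mem_iff_of_index_two hi, mul_mem_iff_of_index_two hi,
        mul_mem_iff_of_index_two hi, inv_mem_iff, inv_mem_iff]
      tauto
  obtain ⟨e⟩ := h.sl s os
  have hcm : ∀ x x' : Matrix.SpecialLinearGroup (Fin 2) (ZMod 3), x * x' = x' * x := by
    intro x x'
    obtain ⟨p, rfl⟩ := e.surjective x
    obtain ⟨q, rfl⟩ := e.surjective x'
    rw [← map_mul, ← map_mul]
    congr 1
    apply Subtype.ext; apply Subtype.ext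
    exact setLike_mul_comm (s := K) (hle p.2) (hle q.2)
  have := congrArg (fun x : Matrix.SpecialLinearGroup (Fin 2) (ZMod 3) => x.1 0 0)
    (hcm ⟨!![1, 1; 0, 1], by decide⟩ ⟨!![1, 0; 1, 1], by decide⟩)
  revert this
  decide

theorem zfix {e : G} (he : e ∈ UU a b w.ab) (e2 : e * e = 1) (hz : z * e * z⁻¹ = e) :
    e = 1 ∨ e = a * a * (b * b) := by
  have hA : z * (a * a) * z⁻¹ = b * b := by rw [← za' w]; group
  have hB : z * (b * b) * z⁻¹ = a * a := by rw [← zb' w]; group
  rcases invs w he e2 with h | h | h | h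
  · exact Or.inl h
  · rw [h, hA] at hz; exact absurd hz.symm (nAB w)
  · rw [h, hB] at hz; exact absurd hz (nAB w)
  · exact Or.inr h

def SS : Subgroup G where
  carrier := {x | x ∈ UU a b w.ab ∨ x * z ∈ UU a b w.ab}
  one_mem' := Or.inl (one_mem _)
  mul_mem' := by
    rintro x y (hx | hx) (hy | hy)
    · exact Or.inl (mul_mem hx hy)
    · right; rw [mul_assoc]; exact mul_mem hx hy
    · right
      have : x * y * z = x * z * (z * y * z⁻¹) := by
        calc x * y * z = x * (z * z) * y * z := by rw [w.z2, mul_one]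
          _ = _ := by rw [zi w]; simp only [mul_assoc]
      rw [this]; exact mul_mem hx (zU w hy)
    · left
      have : x * y = x * z * (z * (y * z) * z⁻¹) := by
        calc x * y = x * (z * z) * y := by rw [w.z2, mul_one]
          _ = _ := by group
      rw [this]; exact mul_mem hx (zU w hy)
  inv_mem' := by
    rintro x (hx | hx)
    · exact Or.inl (inv_mem hx)
    · right
      have : x⁻¹ * z = z * (x * z)⁻¹ * z⁻¹ := by
        calc x⁻¹ * z = x⁻¹ * z⁻¹ := by rw [zi w]
          _ = _ := by group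
      rw [this]; exact zU w (inv_mem hx)

theorem sqS {x : G} (hx : x ∈ SS w) : x * x ∈ UU a b w.ab := by
  rcases hx with hx | hx
  · exact mul_mem hx hx
  · have : x * x = x * z * (z * (x * z) * z⁻¹) := by
      calc x * x = x * (z * z) * x := by rw [w.z2, mul_one]
        _ = _ := by group
    rw [this]; exact mul_mem hx (zU w hx)

theorem zt : z * (a * a * (b * b)) * z⁻¹ = a * a * (b * b) := by
  calc z * (a * a * (b * b)) * z⁻¹ =
      (z * a * z⁻¹) * (z * a * z⁻¹) * ((z * b * z⁻¹) * (z * b * z⁻¹)) := by group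
    _ = _ := by
      rw [za' w, zb' w]
      exact (comm w (mul_mem (mb w) (mb w)) (mul_mem (ma w) (ma w))).eq

theorem mt : a * a * (b * b) ∈ UU a b w.ab :=
  mul_mem (mul_mem (ma w) (ma w)) (mul_mem (mb w) (mb w))

theorem cc : a * b * (a * b) = a * a * (b * b) := by
  calc a * b * (a * b) = a * (b * a) * b := by simp only [mul_assoc]
    _ = _ := by rw [← w.ab]; simp only [mul_assoc]

theorem t2 : a * a * (b * b) * (a * a * (b * b)) = 1 := by
  rw [← cc w]; exact sq2 w (mul_mem (ma w) (mb w))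

theorem conjS [Finite G] (h : HY G) {X : Subgroup G} (hX : IsPGroup 2 X)
    (hXA : X ≤ centralizer ({a * a * (b * b)} : Set G)) :
    ∃ c ∈ centralizer ({a * a * (b * b)} : Set G), ∀ x ∈ X, c * x * c⁻¹ ∈ SS w := by
  haveI : Fact (Nat.Prime 2) := ⟨Nat.prime_two⟩
  set A := centralizer ({a * a * (b * b)} : Set G) with hA
  have cA : Nat.card A = 96 := h.cen _ (orderOf_eq_prime (by rw [pow_two, t2 w]) (nT w))
  have hSA : SS w ≤ A := by
    rintro x (hx | hx) <;> rw [hA, mem_centralizer_singleton_iff]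
    · exact (comm w hx (mt w)).eq
    · have h1 : Commute (x * z) (a * a * (b * b)) := comm w hx (mt w)
      have h2 : Commute z (a * a * (b * b)) := mul_inv_eq_iff_eq_mul.mp (zt w)
      simpa using (h1.mul_left h2.inv_left).eq
  have hS : IsPGroup 2 (SS w) := fun x => ⟨3, Subtype.ext (by
    have := pow4 w (sqS w x.2)
    rw [← pow_two, ← pow_mul] at this
    exact this)⟩
  have hlt : UU a b w.ab < SS w := by
    refine lt_of_le_of_ne (fun x hx => Or.inl hx) (fun e => ?_)
    have hz : z ∈ UU a b w.ab := by rw [e]; right; rw [w.z2]; exact one_mem _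
    have : a = b := by rw [← za' w, (comm w hz (ma w)).eq]; simp
    exact nAB w (by rw [← this])
  have c32 : 32 ≤ Nat.card (SS w) := by
    obtain ⟨m, hm⟩ := card_dvd_of_le hlt.le
    have h16 := Nat.le_of_dvd Nat.card_pos (card16 w)
    have hne : Nat.card (UU a b w.ab) ≠ Nat.card (SS w) := fun e =>
      hlt.ne (eq_of_le_of_card_ge hlt.le e.ge)
    have hp : 0 < Nat.card (SS w) := Nat.card_pos
    rcases m with _ | _ | m
    · omega
    · omega
    · rw [hm]; nlinarith
  obtain ⟨P, hP⟩ := (hS.comap_subtype (K := A)).exists_le_sylow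
  obtain ⟨Q, hQ⟩ := (hX.comap_subtype (K := A)).exists_le_sylow
  have cP : Nat.card P = 32 := by
    rw [P.card_eq_multiplicity, cA]
    have : (96 : ℕ).factorization 2 = 5 := by
      rw [show (96 : ℕ) = 2 ^ 5 * 3 by norm_num,
        Nat.factorization_mul_apply_of_coprime (by norm_num), Nat.factorization_pow_self Nat.prime_two,
        Nat.factorization_eq_zero_of_not_dvd (by norm_num)]
    rw [this]; norm_num
  have hSP : (SS w).comap A.subtype = P := by
    apply eq_of_le_of_card_ge hP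
    have : Nat.card ((SS w).comap A.subtype) = Nat.card (SS w) :=
      Nat.card_congr (subgroupOfEquivOfLe hSA).toEquiv
    rw [this]; exact cP.le.trans c32
  obtain ⟨c, hc⟩ := MulAction.exists_smul_eq A Q P
  refine ⟨c, c.2, fun x hx => ?_⟩
  have h1 : (⟨x, hXA hx⟩ : A) ∈ (Q : Subgroup A) := hQ hx
  have h2 : MulAut.conj c • (⟨x, hXA hx⟩ : A) ∈ ((c • Q : Sylow 2 A) : Subgroup A) := by
    rw [Sylow.coe_subgroup_smul]; exact smul_mem_pointwise_smul _ _ _ h1
  rw [hc, ← hSP] at h2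
  exact h2

theorem exg [Finite G] (h : HY G) : ∃ g : G, g * (a * a) * g⁻¹ = a * a * (b * b) ∧
    ∀ u ∈ UU a b w.ab, g * u * g⁻¹ ∈ UU a b w.ab := by
  haveI : Fact (Nat.Prime 2) := ⟨Nat.prime_two⟩
  obtain ⟨g0, hg0⟩ := isConj_iff.mp (h.cls (a * a) (a * a * (b * b))
    (orderOf_eq_prime (by rw [pow_two, sq2 w (ma w)]) (nA w))
    (orderOf_eq_prime (by rw [pow_two, t2 w]) (nT w)))
  have hp : IsPGroup 2 (UU a b w.ab) := fun x => ⟨2, Subtype.ext (pow4 w x.2)⟩
  obtain ⟨c, hc, hcS⟩ := conjS w h (hp.map (MulAut.conj g0).toMonoidHom) (by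
    rintro _ ⟨u, hu, rfl⟩
    rw [mem_centralizer_singleton_iff, ← hg0]
    have := (comm w hu (mul_mem (ma w) (ma w))).eq
    change g0 * u * g0⁻¹ * _ = _ * (g0 * u * g0⁻¹)
    calc g0 * u * g0⁻¹ * (g0 * (a * a) * g0⁻¹) = g0 * (u * (a * a)) * g0⁻¹ := by group
      _ = _ := by rw [this]; group)
  rw [mem_centralizer_singleton_iff] at hc
  have hA : c * g0 * (a * a) * (c * g0)⁻¹ = a * a * (b * b) := by
    calc c * g0 * (a * a) * (c * g0)⁻¹ = c * (g0 * (a * a) * g0⁻¹) * c⁻¹ := by group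
      _ = _ := by rw [hg0, hc]; simp
  have hS : ∀ u ∈ UU a b w.ab, c * g0 * u * (c * g0)⁻¹ ∈ SS w := by
    intro u hu
    have := hcS _ ⟨u, hu, rfl⟩
    change c * (g0 * u * g0⁻¹) * c⁻¹ ∈ _ at this
    convert this using 1; group
  generalize c * g0 = g at hA hS
  refine ⟨g, hA, fun u hu => ?_⟩
  rcases hS u hu with h1 | h1
  · exact h1
  exfalso
  have hB : g * (b * b) * g⁻¹ ∈ UU a b w.ab := by
    have := sqS w (hS b (mb w))
    convert this using 1; group
  have c1 : Commute (g * u * g⁻¹) (g * (b * b) * g⁻¹) := by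
    have := (comm w hu (mul_mem (mb w) (mb w))).eq
    change _ = _
    calc g * u * g⁻¹ * (g * (b * b) * g⁻¹) = g * (u * (b * b)) * g⁻¹ := by group
      _ = _ := by rw [this]; group
  have c2 := c1.inv_left.mul_left (comm w h1 hB)
  rw [← mul_assoc, inv_mul_cancel, one_mul] at c2
  rcases zfix w hB (by
    calc g * (b * b) * g⁻¹ * (g * (b * b) * g⁻¹) = g * (b * b * (b * b)) * g⁻¹ := by group
      _ = 1 := by rw [sq2 w (mb w)]; simp) (mul_inv_eq_iff_eq_mul.mpr c2.eq) with e | e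
  · exact nB w (by simpa using e)
  · rw [← hA] at e
    exact nAB w (by simpa using e.symm)

theorem exr0 [Finite G] (h : HY G) : ∃ r : G, r ^ 3 = 1 ∧ r ≠ 1 ∧ z * r * z⁻¹ = r⁻¹ ∧
    r ∈ normalizer (UU a b w.ab : Set G) := by
  haveI : Fact (Nat.Prime 2) := ⟨Nat.prime_two⟩
  obtain ⟨g, hg, hgU⟩ := exg w h
  set N := normalizer (UU a b w.ab : Set G) with hNd
  have hgN : g ∈ N := mem_normalizer_fintype hgU
  have hzN : z ∈ N := mem_normalizer_fintype (fun u hu => zU w hu)
  have act : ∀ x ∈ N, ∀ u ∈ UU a b w.ab, x * u * x⁻¹ ∈ UU a b w.ab :=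
    fun x hx u hu => (mem_normalizer_iff.mp hx u).mp hu
  set t := a * a * (b * b) with ht
  set y := g⁻¹ * z * g with hy
  have hyN : y ∈ N := mul_mem (mul_mem (inv_mem hgN) hzN) hgN
  have y2 : y * y = 1 := by
    calc y * y = g⁻¹ * (z * z) * g := by rw [hy]; group
      _ = 1 := by rw [w.z2]; simp
  have yA : y * (a * a) * y⁻¹ = a * a := by
    calc y * (a * a) * y⁻¹ = g⁻¹ * (z * (g * (a * a) * g⁻¹) * z⁻¹) * g := by rw [hy]; group
      _ = g⁻¹ * (g * (a * a) * g⁻¹) * g := by rw [hg, zt w]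
      _ = _ := by group
  have cj2 : ∀ x : G, x * t * x⁻¹ * (x * t * x⁻¹) = 1 := fun x => by
    calc x * t * x⁻¹ * (x * t * x⁻¹) = x * (t * t) * x⁻¹ := by group
      _ = 1 := by rw [t2 w]; simp
  have yT : y * t * y⁻¹ = b * b := by
    rcases invs w (act y hyN t (mt w)) (cj2 y) with e | e | e | e
    · exact absurd (by simpa using e) (nT w)
    · rw [← yA] at e; exact absurd (mul_left_cancel (mul_right_cancel e)) (nTA w)
    · exact e
    · exfalso
      rcases zfix w (act g hgN t (mt w)) (cj2 g) (by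
        calc z * (g * t * g⁻¹) * z⁻¹ = g * (y * t * y⁻¹) * g⁻¹ := by rw [hy]; group
          _ = _ := by rw [e]) with f | f
      · exact nT w (by simpa using f)
      · rw [← ht, ← hg] at f
        have f' : t = a * a := by
          have := mul_right_cancel f
          rw [hg] at this
          exact mul_left_cancel this
        exact nTA w f'
  have yB : y * (b * b) * y⁻¹ = t := by
    rw [← yT]
    calc y * (y * t * y⁻¹) * y⁻¹ = (y * y) * t * (y * y)⁻¹ := by group
      _ = t := by rw [y2]; simp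
  have zA : z * (a * a) * z⁻¹ = b * b := by rw [← za' w]; group
  have zB : z * (b * b) * z⁻¹ = a * a := by rw [← zb' w]; group
  set r := z * y with hr
  have hrN : r ∈ N := mul_mem hzN hyN
  have cr : ∀ e : G, r * e * r⁻¹ = z * (y * e * y⁻¹) * z⁻¹ := fun e => by rw [hr]; group
  have rT : r * t * r⁻¹ = a * a := by rw [cr, yT, zB]
  have rA : r * (a * a) * r⁻¹ = b * b := by rw [cr, yA, zA]
  have rB : r * (b * b) * r⁻¹ = t := by rw [cr, yB, zt w]
  have x3 : Commute (r ^ 3) t := by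
    apply mul_inv_eq_iff_eq_mul.mp
    calc r ^ 3 * t * (r ^ 3)⁻¹ = r * (r * (r * t * r⁻¹) * r⁻¹) * r⁻¹ := by
          simp only [pow_succ, pow_zero, one_mul, mul_inv_rev, mul_assoc]
      _ = t := by rw [rT, rA, rB]
  have cA : Nat.card (centralizer ({t} : Set G)) = 96 :=
    h.cen _ (orderOf_eq_prime (by rw [pow_two, t2 w]) (nT w))
  have x96 : (r ^ 3) ^ 96 = 1 := by
    rw [← cA, ← orderOf_dvd_iff_pow_eq_one]
    exact orderOf_dvd_natCard _ (mem_centralizer_singleton_iff.mpr x3.eq)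
  have x32 : (r ^ 3) ^ 32 = 1 :=
    lemX w h (mt w) (t2 w) (nT w) (act _ (pow_mem (pow_mem hrN 3) 32))
      (by rw [← pow_mul, x96]) (x3.pow_left 32).eq
  have zr : z * r * z⁻¹ = r⁻¹ := by
    rw [hr, mul_inv_rev, inv_eq_of_mul_eq_one_right y2, ← mul_assoc, w.z2, one_mul]
  refine ⟨r ^ 64, ?_, fun e => ?_, ?_, pow_mem hrN 64⟩
  · rw [← pow_mul, show 64 * 3 = 3 * 32 * 2 by norm_num, pow_mul, pow_mul, x32, one_pow]
  · have e1 : r = ((r ^ 3) ^ 21)⁻¹ := by
      apply eq_inv_of_mul_eq_one_left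
      rw [← pow_mul, ← pow_succ', e]
    have : Commute r t := by rw [e1]; exact (x3.pow_left 21).inv_left
    rw [this.eq, mul_inv_cancel_right] at rT
    exact nTA w rT
  · rw [← conj_pow, zr, inv_pow]

end

theorem zp {c x : G} (h4 : c ^ 4 = 1) (hx : x ∈ zpowers c) : x = 1 ∨ x = c * c ∨ x * x = c * c := by
  obtain ⟨i, rfl⟩ := mem_zpowers_iff.mp hx
  have h4' : c ^ (4 : ℤ) = 1 := by exact_mod_cast h4
  obtain ⟨m, hm | hm | hm | hm⟩ : ∃ m : ℤ, i = 4 * m ∨ i = 4 * m + 1 ∨ i = 4 * m + 2 ∨ i = 4 * m + 3 :=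
    ⟨i / 4, by omega⟩
  · left; rw [hm, zpow_mul, h4', one_zpow]
  · right; right; rw [hm, zpow_add, zpow_mul, h4', one_zpow, one_mul, zpow_one]
  · right; left; rw [hm, zpow_add, zpow_mul, h4', one_zpow, one_mul, zpow_two]
  · right; right; rw [hm, zpow_add, zpow_mul, h4', one_zpow, one_mul]
    calc c ^ (3 : ℤ) * c ^ (3 : ℤ) = c ^ (4 : ℤ) * (c * c) := by group
      _ = _ := by rw [h4', one_mul]

end RX

open RX in
theorem exr [Finite G] (h : HY G) : ∃ a b z r : G, W3 a b z ∧ RR a b z r := by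
  haveI : Fact (Nat.Prime 2) := ⟨Nat.prime_two⟩
  obtain ⟨a, b, z, w⟩ := h.wr
  obtain ⟨r, r3, r1, zr, hN⟩ := exr0 w h
  have act : ∀ x ∈ normalizer (UU a b w.ab : Set G), ∀ u ∈ UU a b w.ab,
      x * u * x⁻¹ ∈ UU a b w.ab := fun x hx u hu => (mem_normalizer_iff.mp hx u).mp hu
  have CU : ∀ u ∈ UU a b w.ab, r * u = u * r → u = 1 := by
    intro u hu hru
    by_contra u1
    by_cases u2 : u * u = 1
    · exact r1 (lemX w h hu u2 u1 (act r hN) r3 hru)
    · exact r1 (lemX w h (mul_mem hu hu) (sq2 w hu) u2 (act r hN) r3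
        ((show Commute r u from hru).mul_right hru).eq)
  have rr : r * r = r⁻¹ := by
    apply eq_inv_of_mul_eq_one_left
    rw [← r3]; simp only [pow_succ, pow_zero, one_mul]
  set c := a * b with hc
  have mc : c ∈ UU a b w.ab := mul_mem (ma w) (mb w)
  have c2 : c * c ≠ 1 := by rw [hc, cc w]; exact nT w
  have zc : z * c * z⁻¹ = c := by
    calc z * c * z⁻¹ = (z * a * z⁻¹) * (z * b * z⁻¹) := by rw [hc]; group
      _ = c := by rw [za' w, zb' w, hc, w.ab]
  have oc : orderOf c = 4 :=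
    orderOf_eq_prime_pow (p := 2) (n := 1) (by rw [pow_one, pow_two]; exact c2) (pow4 w mc)
  set d := r * c * r⁻¹ with hd
  set e := r⁻¹ * c * r⁻¹⁻¹ with he
  have md : d ∈ UU a b w.ab := act r hN c mc
  have me : e ∈ UU a b w.ab := act r⁻¹ (inv_mem hN) c mc
  have rd : r * d * r⁻¹ = e := by
    calc r * d * r⁻¹ = (r * r) * c * (r * r)⁻¹ := by rw [hd]; group
      _ = e := by rw [rr]
  have re : r * e * r⁻¹ = c := by rw [he]; group
  have n1 : c * (d * e) = 1 := by
    apply CU _ (mul_mem mc (mul_mem md me))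
    apply mul_inv_eq_iff_eq_mul.mp
    calc r * (c * (d * e)) * r⁻¹ = (r * c * r⁻¹) * (r * d * r⁻¹) * (r * e * r⁻¹) := by group
      _ = c * (d * e) := by rw [rd, re, ← hd]; exact (comm w (mul_mem md me) mc).eq
  have d2 : d * d = r * (c * c) * r⁻¹ := by rw [hd]; group
  have e2 : e * e = r⁻¹ * (c * c) * r := by rw [he]; group
  have d1 : d * d ≠ 1 := fun h' => c2 (by rw [d2] at h'; simpa using h')
  have e1 : e * e ≠ 1 := fun h' => c2 (by
    calc c * c = r * (e * e) * r⁻¹ := by rw [e2]; group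
      _ = 1 := by rw [h']; simp)
  have de : d * d ≠ e * e := fun h' => c2 (by
    apply CU _ (mul_mem mc mc)
    apply c23 r3
    calc r * r * (c * c) = r * (d * d) * r := by rw [d2]; group
      _ = _ := by rw [h', e2]; group)
  refine ⟨d, e, z, r, ⟨?_, (comm w md me).eq, ?_, w.z2, ?_⟩, ⟨r3, rd, ?_, ?_⟩⟩
  · rw [← oc]; exact (MulAut.conj r).orderOf_eq c
  · rw [eq_bot_iff]
    rintro x ⟨h1, h2⟩
    rw [mem_bot]
    rcases zp (pow4 w md) h1 with f | f | f
    · exact f
    · rcases zp (pow4 w me) h2 with k | k | k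
      · exact k
      · exact absurd (f.symm.trans k) de
      · rw [f, sq2 w md] at k; exact absurd k.symm e1
    · rcases zp (pow4 w me) h2 with k | k | k
      · exact k
      · rw [k, sq2 w me] at f; exact absurd f.symm d1
      · exact absurd (f.symm.trans k) de
  · calc z * d * z = z * d * z⁻¹ := by rw [zi w]
      _ = (z * r * z⁻¹) * (z * c * z⁻¹) * (z * r * z⁻¹)⁻¹ := by rw [hd]; group
      _ = e := by rw [zr, zc]
  · rw [re]; exact eq_inv_of_mul_eq_one_left n1
  · calc z * r * z * r = z * r * z⁻¹ * r := by rw [zi w]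
      _ = 1 := by rw [zr]; simp

end Cfsg.Agent.G22
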